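import Mathlib
import Cfsg.Agent.Lib.Helper20.Isolated

set_option autoImplicit false

namespace Cfsg.Agent.Lib.Helper20

variable {G : Type*} [Group G]

theorem iso_of_isConj {z w : G} (hz : Cfsg.IsIsolatedInvolution z) (h : IsConj z w) :
    Cfsg.IsIsolatedInvolution w := by
  obtain ⟨c, rfl⟩ := isConj_iff.mp h
  exact iso_conj hz c

/-- for `k` inverted by the involution `z`: `k z k⁻¹ = k² z` -/
theorem iso_conj_eq_sq {z k : G} (hz : Cfsg.IsIsolatedInvolution z) (hk : z * k * z⁻¹ = k⁻¹) :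
    k * z * k⁻¹ = k ^ 2 * z := by
  have : z * k⁻¹ = k * z := by
    calc z * k⁻¹ = z * (z * k * z⁻¹) := by rw [hk]
      _ = (z * z) * k * z⁻¹ := by group
      _ = k * z := by rw [iso_mul_self hz, iso_inv hz, one_mul]
  rw [mul_assoc, this, pow_two]; group

theorem iso_K_inj {z k k' : G} (hz : Cfsg.IsIsolatedInvolution z)
    (h1 : Odd (orderOf k)) (h2 : z * k * z⁻¹ = k⁻¹) (h1' : Odd (orderOf k')) (h2' : z * k' * z⁻¹ = k'⁻¹)
    (h : k * z * k⁻¹ = k' * z * k'⁻¹) : k = k' := by
  apply odd_sq_inj h1 h1'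
  rw [iso_conj_eq_sq hz h2, iso_conj_eq_sq hz h2'] at h
  exact mul_right_cancel h

theorem iso_K_surj [Finite G] {z w : G} (hz : Cfsg.IsIsolatedInvolution z) (h : IsConj z w) :
    ∃ k : G, Odd (orderOf k) ∧ z * k * z⁻¹ = k⁻¹ ∧ k * z * k⁻¹ = w := by
  obtain ⟨c, rfl⟩ := isConj_iff.mp h
  obtain ⟨n, h1, h2, h3⟩ := iso_sqrt hz c
  exact ⟨_, h1, h2, h3⟩

/-- if `c` commutes with `z` and with `k z k⁻¹` (`k` odd, inverted) then `c` commutes with `k` -/
theorem iso_K_comm {z k c : G} (hz : Cfsg.IsIsolatedInvolution z)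
    (h1 : Odd (orderOf k)) (h2 : z * k * z⁻¹ = k⁻¹) (hc : Commute c z) (hc' : Commute c (k * z * k⁻¹)) :
    Commute c k := by
  have e : c * k * c⁻¹ = k := by
    apply iso_K_inj hz _ _ h1 h2
    · calc c * k * c⁻¹ * z * (c * k * c⁻¹)⁻¹ = c * k * (c⁻¹ * z * c) * k⁻¹ * c⁻¹ := by group
        _ = c * k * z * k⁻¹ * c⁻¹ := by rw [hc.inv_mul_cancel]
        _ = c * (k * z * k⁻¹) * c⁻¹ := by group
        _ = k * z * k⁻¹ := by rw [hc'.eq]; group
    · have : c * k * c⁻¹ = MulAut.conj c k := rfl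
      rw [this, MulEquiv.orderOf_eq]; exact h1
    · calc z * (c * k * c⁻¹) * z⁻¹ = (z * c) * k * (z * c)⁻¹ := by group
        _ = (c * z) * k * (c * z)⁻¹ := by rw [hc.eq]
        _ = c * (z * k * z⁻¹) * c⁻¹ := by group
        _ = (c * k * c⁻¹)⁻¹ := by rw [h2]; group
  unfold Commute SemiconjBy
  calc c * k = (c * k * c⁻¹) * c := by group
    _ = k * c := by rw [e]

/-- product of two conjugates commuting with `z` forces equality -/
theorem iso_prod_comm [Finite G] {z s t : G} (hz : Cfsg.IsIsolatedInvolution z)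
    (hs : IsConj z s) (ht : IsConj z t) (hC : Commute (s * t) z) : s = t := by
  obtain ⟨g, rfl⟩ := isConj_iff.mp hs
  obtain ⟨h, rfl⟩ := isConj_iff.mp ht
  set s := g * z * g⁻¹ with hs
  set t := h * z * h⁻¹ with ht
  have hss : s * s = 1 := iso_mul_self (iso_conj hz g)
  have htt : t * t = 1 := iso_mul_self (iso_conj hz h)
  have hzz := iso_mul_self hz
  have hrodd : Odd (orderOf (s * t)) := iso_odd_conj hz g h
  have huodd : Odd (orderOf (s * z)) := iso_odd' hz g
  set r := s * t with hr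
  set u := s * z with hu
  have hrinv : r⁻¹ = t * s := by
    apply inv_eq_of_mul_eq_one_left
    calc t * s * (s * t) = t * (s * s) * t := by group
      _ = 1 := by rw [hss, mul_one, htt]
  have h1 : u * r = r⁻¹ * u := by
    rw [hu, mul_assoc, ← hC.eq, hrinv, hr]
    calc s * (s * t * z) = (s * s) * t * z := by group
      _ = t * (s * s) * z := by rw [hss]; simp
      _ = _ := by group
  have h2 : Commute (u ^ 2) r := by
    unfold Commute SemiconjBy
    have h1' : u * r⁻¹ = r * u := by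
      calc u * r⁻¹ = r * (r⁻¹ * u) * r⁻¹ := by group
        _ = r * (u * r) * r⁻¹ := by rw [h1]
        _ = r * u := by group
    rw [pow_two, mul_assoc, h1, ← mul_assoc, h1', mul_assoc]
  obtain ⟨n, hn⟩ := odd_mem_zpowers_sq huodd
  have h3 : Commute u r := by rw [hn]; exact h2.pow_left n
  have h4 : r = r⁻¹ := by
    have := h3.eq
    rw [h1] at this
    exact (mul_right_cancel this).symm
  have h5 : r ^ 2 = (1 : G) ^ 2 := by
    rw [pow_two, one_pow]; nth_rewrite 1 [h4]; group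
  have h6 : r = 1 := odd_sq_inj hrodd (by simp) h5
  calc s = s * (t * t) := by rw [htt, mul_one]
    _ = r * t := by rw [hr]; group
    _ = t := by rw [h6, one_mul]

/-- uniqueness of midpoints -/
theorem iso_mid_unique [Finite G] {z w m m' : G} (hz : Cfsg.IsIsolatedInvolution z)
    (hw : IsConj z w) (hm : IsConj z m) (hm' : IsConj z m') (h : m * w * m⁻¹ = m' * w * m'⁻¹) :
    m = m' := by
  have hwi := iso_of_isConj hz hw
  have hmi := iso_inv (iso_of_isConj hz hm)
  have hmi' := iso_inv (iso_of_isConj hz hm')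
  apply iso_prod_comm hwi (hw.symm.trans hm) (hw.symm.trans hm')
  unfold Commute SemiconjBy
  rw [hmi, hmi'] at h
  have hmm : m * m = 1 := iso_mul_self (iso_of_isConj hz hm)
  have hmm' : m' * m' = 1 := iso_mul_self (iso_of_isConj hz hm')
  calc m * m' * w = m * m' * w * (m' * m') := by rw [hmm', mul_one]
    _ = m * (m' * w * m') * m' := by group
    _ = m * (m * w * m) * m' := by rw [h]
    _ = (m * m) * w * (m * m') := by group
    _ = w * (m * m') := by rw [hmm, one_mul]

/-- existence of midpoints -/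
theorem iso_mid_exists [Finite G] {z w w' : G} (hz : Cfsg.IsIsolatedInvolution z)
    (hw : IsConj z w) (hw' : IsConj z w') : ∃ m, IsConj z m ∧ m * w * m⁻¹ = w' := by
  have hwi := iso_of_isConj hz hw
  obtain ⟨k, h1, h2, h3⟩ := iso_K_surj hwi (hw.symm.trans hw')
  -- k = j^2 with j a power of k
  obtain ⟨t, ht⟩ := h1
  set j := k ^ (t + 1) with hj
  have hjj : j ^ 2 = k := by
    rw [hj, ← pow_mul]
    have : (t + 1) * 2 = orderOf k + 1 := by omega
    rw [this, pow_succ, pow_orderOf_eq_one, one_mul]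
  have hjinv : w * j * w⁻¹ = j⁻¹ := by
    have : w * j * w⁻¹ = (w * k * w⁻¹) ^ (t + 1) := by rw [hj, conj_pow]
    rw [this, h2, hj, inv_pow]
  refine ⟨j * w * j⁻¹, hw.trans (isConj_iff.mpr ⟨j, rfl⟩), ?_⟩
  rw [iso_conj_eq_sq hwi hjinv, hjj, ← h3]
  have hww := iso_mul_self hwi
  have hwinv := iso_inv hwi
  calc k * w * w * (k * w)⁻¹ = k * (w * w) * w⁻¹ * k⁻¹ := by group
    _ = k * w * k⁻¹ := by rw [hww, hwinv, mul_one]

end Cfsg.Agent.Lib.Helper20
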