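import Mathlib
import Cfsg.Prelude.Def_LieRecognition

set_option autoImplicit false

namespace Cfsg.Agent.Lib.Helper20

variable {G Ω : Type*} [Group G] [MulAction G Ω] {a : Ω} {t : G} {Q : Subgroup G}

theorem r1_tinv (hS : Cfsg.IsRankOneSetup G Ω a t Q) : t⁻¹ = t :=
  inv_eq_of_mul_eq_one_left hS.mul_self

theorem r1_tt (hS : Cfsg.IsRankOneSetup G Ω a t Q) (u : G) : t * (t * u) = u := by
  rw [← mul_assoc, hS.mul_self, one_mul]

theorem r1_tD (hS : Cfsg.IsRankOneSetup G Ω a t Q) {c : G}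
    (hc : c ∈ MulAction.stabilizer G a ⊓ MulAction.stabilizer G (t • a)) :
    t * c * t ∈ MulAction.stabilizer G a ⊓ MulAction.stabilizer G (t • a) := by
  obtain ⟨h1, h2⟩ := Subgroup.mem_inf.mp hc
  rw [MulAction.mem_stabilizer_iff] at h1 h2
  refine Subgroup.mem_inf.mpr ⟨?_, ?_⟩
  · rw [MulAction.mem_stabilizer_iff, mul_smul, mul_smul, h2, ← mul_smul, hS.mul_self, one_smul]
  · rw [MulAction.mem_stabilizer_iff, mul_smul, mul_smul, ← mul_smul t t, hS.mul_self, one_smul, h1]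

theorem r1_conj (hS : Cfsg.IsRankOneSetup G Ω a t Q) {c x : G}
    (hc : c ∈ MulAction.stabilizer G a ⊓ MulAction.stabilizer G (t • a)) (hx : x ∈ Q) :
    c * x * c⁻¹ ∈ Q := hS.conj_mem c (Subgroup.mem_inf.mp hc).1 x hx

theorem r1_conj' (hS : Cfsg.IsRankOneSetup G Ω a t Q) {c x : G}
    (hc : c ∈ MulAction.stabilizer G a ⊓ MulAction.stabilizer G (t • a)) (hx : x ∈ Q) :
    c⁻¹ * x * c ∈ Q := by
  have := hS.conj_mem c⁻¹ (Subgroup.inv_mem _ (Subgroup.mem_inf.mp hc).1) x hx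
  rwa [inv_inv] at this

/-- uniqueness of the canonical form `g h t f` -/
theorem r1_unique (hS : Cfsg.IsRankOneSetup G Ω a t Q) {g h f g' h' f' : G}
    (hg : g ∈ Q) (hh : h ∈ MulAction.stabilizer G a ⊓ MulAction.stabilizer G (t • a)) (hf : f ∈ Q)
    (hg' : g' ∈ Q) (hh' : h' ∈ MulAction.stabilizer G a ⊓ MulAction.stabilizer G (t • a)) (hf' : f' ∈ Q)
    (e : g * h * t * f = g' * h' * t * f') : g = g' ∧ h = h' ∧ f = f' := by
  have hti := r1_tinv hS
  have fixa : ∀ u ∈ Q, u⁻¹ • a = a := by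
    intro u hu
    have := hS.le (Q.inv_mem hu)
    rwa [MulAction.mem_stabilizer_iff] at this
  have fixa' : ∀ u ∈ MulAction.stabilizer G a ⊓ MulAction.stabilizer G (t • a), u⁻¹ • a = a := by
    intro u hu
    have := Subgroup.inv_mem _ (Subgroup.mem_inf.mp hu).1
    rwa [MulAction.mem_stabilizer_iff] at this
  have e1 : (g * h * t * f)⁻¹ • a = f⁻¹ • (t • a) := by
    simp only [mul_inv_rev, mul_smul, fixa g hg, fixa' h hh, hti]
  have e2 : (g' * h' * t * f')⁻¹ • a = f'⁻¹ • (t • a) := by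
    simp only [mul_inv_rev, mul_smul, fixa g' hg', fixa' h' hh', hti]
  rw [e, e2] at e1
  have e3 : f * f'⁻¹ ∈ Q ⊓ MulAction.stabilizer G (t • a) := by
    refine Subgroup.mem_inf.mpr ⟨Q.mul_mem hf (Q.inv_mem hf'), ?_⟩
    rw [MulAction.mem_stabilizer_iff, mul_smul, e1, smul_inv_smul]
  rw [hS.inf_eq_bot, Subgroup.mem_bot] at e3
  have hff : f = f' := by rwa [mul_inv_eq_one] at e3
  subst hff
  have e4 : g * h = g' * h' := by
    have := mul_right_cancel e
    exact mul_right_cancel this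
  have e5 : g'⁻¹ * g ∈ Q ⊓ MulAction.stabilizer G (t • a) := by
    refine Subgroup.mem_inf.mpr ⟨Q.mul_mem (Q.inv_mem hg') hg, ?_⟩
    have : g'⁻¹ * g = h' * h⁻¹ := by
      calc g'⁻¹ * g = g'⁻¹ * (g * h) * h⁻¹ := by group
        _ = g'⁻¹ * (g' * h') * h⁻¹ := by rw [e4]
        _ = _ := by group
    rw [this]
    exact Subgroup.mul_mem _ (Subgroup.mem_inf.mp hh').2 (Subgroup.inv_mem _ (Subgroup.mem_inf.mp hh).2)
  rw [hS.inf_eq_bot, Subgroup.mem_bot] at e5
  have hgg : g = g' := by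
    rw [inv_mul_eq_one] at e5; exact e5.symm
  subst hgg
  exact ⟨rfl, mul_left_cancel e4, rfl⟩

end Cfsg.Agent.Lib.Helper20
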